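import Cfsg.Agent.Lib.H04.Chev.Exists
import Cfsg.Agent.Lib.H04.Chev.RootChar

/-! The root-addition checks for the seven types. -/

set_option autoImplicit false
set_option maxRecDepth 100000

open Cfsg.Lie

namespace Cfsg.Agent.H04.Chev

theorem addG2 : segAll 6 6 (addRow chevG2 TG2.T) = true := by decide +kernel
theorem addB2 : segAll 4 4 (addRow chevB2 TB2.T) = true := by decide +kernel
theorem addD4 : segAll 12 12 (addRow chevD4 TD4.T) = true := by decide +kernel
theorem addF4 : segAll 24 24 (addRow chevF4 TF4.T) = true := by decide +kernel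
theorem addE6 : segAll 36 36 (addRow chevE6 TE6.T) = true := by decide +kernel
theorem addE7 : segAll 63 63 (addRow chevE7 TE7.T) = true := by decide +kernel
theorem addE8 : segAll 120 120 (addRow chevE8 TE8.T) = true := by decide +kernel

/-- The tables for each of the seven tabulated types, with the root-addition check. -/
theorem exists_tabs_add {D : ChevalleyDatum}
    (hD : D ∈ [chevG2, chevB2, chevD4, chevF4, chevE6, chevE7, chevE8]) :
    ∃ (T : Tabs) (U : Tabs3), Checks D T ∧ Checks2 D T ∧ Checks3 D T U ∧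
      ∀ r, D.nroots / 2 ≤ r → r < D.nroots → addRow D T r = true := by
  simp only [List.mem_cons, List.not_mem_nil, or_false] at hD
  rcases hD with rfl | rfl | rfl | rfl | rfl | rfl | rfl
  · refine ⟨_, _, TG2.checks, TG2.checks2, TG2.checks3, fun r h0 hr => segAll_spec addG2 r h0 hr⟩
  · refine ⟨_, _, TB2.checks, TB2.checks2, TB2.checks3, fun r h0 hr => segAll_spec addB2 r h0 hr⟩
  · refine ⟨_, _, TD4.checks, TD4.checks2, TD4.checks3, fun r h0 hr => segAll_spec addD4 r h0 hr⟩
  · refine ⟨_, _, TF4.checks, TF4.checks2, TF4.checks3, fun r h0 hr => segAll_spec addF4 r h0 hr⟩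
  · refine ⟨_, _, TE6.checks, TE6.checks2, TE6.checks3, fun r h0 hr => segAll_spec addE6 r h0 hr⟩
  · refine ⟨_, _, TE7.checks, TE7.checks2, TE7.checks3, fun r h0 hr => segAll_spec addE7 r h0 hr⟩
  · refine ⟨_, _, TE8.checks, TE8.checks2, TE8.checks3, fun r h0 hr => segAll_spec addE8 r h0 hr⟩

end Cfsg.Agent.H04.Chev
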