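import Cfsg.Agent.Lib.H04.Chev.Gen
import Cfsg.Agent.Lib.H04.Chev.Exists

/-!
# Signs of graph automorphisms on root elements, types D₄ and E₆
-/

set_option autoImplicit false
set_option linter.style.haveILetI false
set_option linter.unusedSimpArgs false
set_option linter.unusedSectionVars false
set_option linter.unusedVariables false
set_option maxRecDepth 100000

open Cfsg.Lie

namespace Cfsg.Agent.H04.Chev

variable {D : ChevalleyDatum} {T : Tabs} {U : Tabs3}

/-- the table check for a permutation of the diagram -/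
noncomputable def permCheck (D : ChevalleyDatum) (T : Tabs) (π : Equiv.Perm (Fin D.rank)) : Bool :=
  (List.finRange D.rank).all fun i =>
    D.permRoot π (D.simple i.val) == D.simple (π i).val &&
    (List.range D.nroots).all fun r =>
      Nat.blt (D.permRoot π r) D.nroots &&
      (D.permRoot π (T.w (D.simple i.val) r) == T.w (D.simple (π i).val) (D.permRoot π r))

instance (D : ChevalleyDatum) (π : Equiv.Perm (Fin D.rank)) : Decidable (D.IsDiagramSymmetry π) :=
  inferInstanceAs (Decidable (∀ i j : Fin D.rank, i ≠ j → _))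

theorem permCheck_D4 : ∀ π : Equiv.Perm (Fin chevD4.rank), chevD4.IsDiagramSymmetry π →
    permCheck chevD4 TD4.T π = true := by decide +kernel

theorem permCheck_E6 : ∀ π : Equiv.Perm (Fin chevE6.rank), chevE6.IsDiagramSymmetry π →
    permCheck chevE6 TE6.T π = true := by decide +kernel

section
variable (C : Checks D T) (C3 : Checks3 D T U)
variable {F : Type*} [Field F]

/-- the root element as an element of the group -/
def xS (r : ℕ) (hr : r < D.nroots) (t : F) : ↥(D.group F) := ⟨xG C r t, xG_mem_group C hr t⟩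

lemma sv_one_cases (b : Bool) : sv F b 1 = 1 ∨ sv F b 1 = -1 := by
  cases b <;> simp [sv]

include C C3 in
/-- **S2161** -/
theorem graph_sign (π : Equiv.Perm (Fin D.rank)) (hπ : permCheck D T π = true)
    (φ : ↥(D.group F) ≃* ↥(D.group F))
    (hφ : ∀ (g : ↥(D.group F)) (i : Fin D.rank) (t : F),
      (((g : GL D.Idx F) : Matrix D.Idx D.Idx F) = D.x F (D.simple i) t →
        ((φ g : GL D.Idx F) : Matrix D.Idx D.Idx F) = D.x F (D.simple (π i)) t) ∧
      (((g : GL D.Idx F) : Matrix D.Idx D.Idx F) = D.x F (D.neg (D.simple i)) t →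
        ((φ g : GL D.Idx F) : Matrix D.Idx D.Idx F) = D.x F (D.neg (D.simple (π i))) t))
    (r : ℕ) (hr : r < D.nroots) :
    ∃ ε : F, (ε = 1 ∨ ε = -1) ∧ ∀ (g : ↥(D.group F)) (t : F),
      ((g : GL D.Idx F) : Matrix D.Idx D.Idx F) = D.x F r t →
        ((φ g : GL D.Idx F) : Matrix D.Idx D.Idx F) = D.x F (D.permRoot π r) (ε * t) := by
  -- the table
  have hT : ∀ i : Fin D.rank, D.permRoot π (D.simple i.val) = D.simple (π i).val ∧
      ∀ r, r < D.nroots → D.permRoot π r < D.nroots ∧
        D.permRoot π (T.w (D.simple i.val) r) = T.w (D.simple (π i).val) (D.permRoot π r) := by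
    intro i
    have h1 := List.all_eq_true.1 hπ i (List.mem_finRange i)
    simp only [Bool.and_eq_true, beq_iff_eq, List.all_eq_true, List.mem_range] at h1
    refine ⟨h1.1, fun r hr => ?_⟩
    have h2 := h1.2 r hr
    exact ⟨Nat.le_of_ble_eq_true h2.1, h2.2⟩
  -- the images
  have himg : ∀ (i : Fin D.rank) (t : F),
      ((φ (xS C _ (C.simple_lt i.val i.2) t) : ↥(D.group F)) : GL D.Idx F) = xG C (D.simple (π i).val) t := by
    intro i t
    apply Units.ext
    exact (hφ _ i t).1 rfl
  have hneg : ∀ s, s < D.nroots → D.neg s = negF D s := fun s hs => C.neg s hs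
  have himg' : ∀ (i : Fin D.rank) (t : F),
      ((φ (xS C _ (negF_lt (C.simple_lt i.val i.2)) t) : ↥(D.group F)) : GL D.Idx F)
        = xG C (negF D (D.simple (π i).val)) t := by
    intro i t
    apply Units.ext
    have hl := C.simple_lt i.val i.2
    have hl' := C.simple_lt (π i).val (π i).2
    have h1 := (hφ (xS C _ (negF_lt hl) t) i t).2 (by
      rw [hneg _ hl]
      rfl)
    rw [hneg _ hl'] at h1
    exact h1
  have hnG : ∀ i : ℕ, i < D.rank → nG C (D.simple i) (1 : F) = xG C (D.simple i) 1 * xG C (negF D (D.simple i)) (-(1 : F)⁻¹) * xG C (D.simple i) 1 := by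
    intro i hi
    apply Units.ext
    rw [nG_val]
    simp only [Units.val_mul, xG_val, ChevalleyDatum.nMat, ChevalleyDatum.nWord]
    rw [hneg _ (C.simple_lt i hi)]
    simp [ChevalleyDatum.wordMat, mul_assoc]
  have himgn : ∀ (i : Fin D.rank),
      ((φ ⟨nG C (D.simple i.val) (1 : F), nG_mem_group C (C.simple_lt i.val i.2) 1⟩ : ↥(D.group F)) : GL D.Idx F)
        = nG C (D.simple (π i).val) 1 := by
    intro i
    have e : (⟨nG C (D.simple i.val) (1 : F), nG_mem_group C (C.simple_lt i.val i.2) 1⟩ : ↥(D.group F))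
        = xS C _ (C.simple_lt i.val i.2) 1 * xS C _ (negF_lt (C.simple_lt i.val i.2)) (-(1 : F)⁻¹) * xS C _ (C.simple_lt i.val i.2) 1 :=
      Subtype.ext (hnG i.val i.2)
    rw [e, map_mul, map_mul, Subgroup.coe_mul, Subgroup.coe_mul, himg, himg', hnG _ (π i).2]
  -- the induction
  have key : ∀ r, r < D.nroots → ∃ ε : F, (ε = 1 ∨ ε = -1) ∧ ∀ (hr : r < D.nroots) (t : F),
      ((φ (xS C r hr t) : ↥(D.group F)) : GL D.Idx F) = xG C (D.permRoot π r) (ε * t) := by
    apply root_induction C
    · intro r hr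
      obtain ⟨i, hi, rfl⟩ := C3.reps r hr
      refine ⟨1, Or.inl rfl, fun _ t => ?_⟩
      have h1 := himg ⟨i, hi⟩ t
      have h2 := (hT ⟨i, hi⟩).1
      simp only at h1 h2
      rw [h2, one_mul]
      exact h1
    · intro j r hj hr ⟨ε, hε, h⟩
      have h1 := hT ⟨j, hj⟩
      obtain ⟨h2, h3⟩ := h1.2 r hr
      simp only at h3
      set η := sv F (T.eta (D.simple j) r) 1 with hη
      set η' := sv F (T.eta (D.simple (π ⟨j, hj⟩).val) (D.permRoot π r)) 1 with hη'
      have hη2 : η * η = 1 := by
        rcases sv_one_cases (F := F) (T.eta (D.simple j) r) with h | h <;> simp [hη, h]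
      refine ⟨η' * ε * η, ?_, fun hw t => ?_⟩
      · rcases sv_one_cases (F := F) (T.eta (D.simple (π ⟨j, hj⟩).val) (D.permRoot π r)) with h4 | h4 <;>
        rcases sv_one_cases (F := F) (T.eta (D.simple j) r) with h5 | h5 <;>
        rcases hε with h6 | h6 <;> simp [hη, hη', h4, h5, h6]
      · have e : xS C _ hw t = ⟨nG C (D.simple j) (1 : F), nG_mem_group C (C.simple_lt j hj) 1⟩ *
            xS C r hr (η * t) * (⟨nG C (D.simple j) (1 : F), nG_mem_group C (C.simple_lt j hj) 1⟩ : ↥(D.group F))⁻¹ := by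
          apply Subtype.ext
          change xG C _ t = nG C _ 1 * xG C r (η * t) * (nG C _ 1)⁻¹
          rw [nG_inv]
          apply Units.ext
          simp only [Units.val_mul, xG_val, nG_val]
          exact x_w_eq C hj hr t
        rw [e, map_mul, map_mul, map_inv, Subgroup.coe_mul, Subgroup.coe_mul, Subgroup.coe_inv]
        have h4 := himgn ⟨j, hj⟩
        simp only at h4
        rw [h4, h, h3]
        have h5 := conj_nG C (π ⟨j, hj⟩).2 h2 (ε * (η * t))
        rw [h5, mul_inv_cancel_right]
        congr 1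
        rw [← hη']
        ring
  obtain ⟨ε, hε, h⟩ := key r hr
  refine ⟨ε, hε, fun g t hg => ?_⟩
  have hgx : g = xS C r hr t := Subtype.ext (Units.ext hg)
  rw [hgx]
  have h1 := h hr t
  have h2 := congrArg Units.val h1
  exact h2

end

end Cfsg.Agent.H04.Chev
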